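/-
A criterion for a finite 2-group to be extraspecial.
-/
import Mathlib
import Cfsg.Prelude.Def_Transfer
import Cfsg.Agent.Lib.FGS.ElemAb
import Cfsg.Agent.Lib.SS.Misc

set_option autoImplicit false
set_option linter.unusedVariables false
set_option linter.unusedSectionVars false

open scoped commutatorElement

namespace CfsgLib.ExS

open Subgroup Cfsg

theorem extraspecial_of_props {P : Type*} [Group P] [Finite P] (hP : IsPGroup 2 P)
    (hcard : Nat.card (center P) = 2) (hcomm : ∀ a b : P, a * b * a⁻¹ * b⁻¹ ∈ center P)
    (hsq : ∀ a : P, a * a ∈ center P) (hna : ∃ a b : P, a * b ≠ b * a) : IsExtraspecial 2 P := by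
  haveI : Fact (Nat.Prime 2) := ⟨Nat.prime_two⟩
  haveI : Group.IsNilpotent P := hP.isNilpotent
  refine ⟨⟨hP, ?_, ?_⟩, hcard⟩
  all_goals
    have hle : commutator P ≤ center P := by
      rw [commutator_def, Subgroup.commutator_le]
      intro a _ b _
      exact hcomm a b
    have hge : center P ≤ commutator P := by
      obtain ⟨a, b, hab⟩ := hna
      have h1 : a * b * a⁻¹ * b⁻¹ ≠ 1 := by
        intro h
        apply hab
        have := mul_inv_eq_one.mp h
        have h2 := mul_inv_eq_iff_eq_mul.mp this
        exact h2
      intro z hz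
      have hc : (⟨_, hcomm a b⟩ : center P) ≠ 1 := fun h => h1 (congrArg Subtype.val h)
      have hz2 : z = 1 ∨ z = a * b * a⁻¹ * b⁻¹ := by
        obtain ⟨w, hw1, hw⟩ := (Nat.card_eq_two_iff' (1 : center P)).mp hcard
        have e1 := hw _ hc
        by_cases hz1 : (⟨z, hz⟩ : center P) = 1
        · left
          exact congrArg Subtype.val hz1
        · right
          have e2 := hw _ hz1
          exact congrArg Subtype.val (e2.trans e1.symm)
      rcases hz2 with rfl | rfl
      · exact one_mem _
      · have : a * b * a⁻¹ * b⁻¹ = ⁅a, b⁆ := rfl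
        rw [this, commutator_def]
        exact Subgroup.commutator_mem_commutator (mem_top _) (mem_top _)
  · apply le_antisymm
    · haveI : (center P).Normal := inferInstance
      apply CfsgLib.FGS.ElemAb.frattini_le_of_quotient 2 (center P) hcomm
      intro x
      rw [pow_two]
      exact hsq x
    · exact hge.trans CfsgLib.SS.commutator_le_frattini_of_nilpotent
  · exact le_antisymm hle hge

end CfsgLib.ExS
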