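/-
Odd order automorphisms of an extraspecial 2-group: the central product decomposition.
-/
import Mathlib
import Cfsg.Prelude.Def_MonsterType
import Cfsg.Agent.Lib.ExS.Crit
import Cfsg.Agent.Lib.OOL.ES
import Cfsg.Agent.Lib.Solv.CoprimeSylow

set_option autoImplicit false
set_option linter.unusedVariables false
set_option linter.unusedSectionVars false

open scoped commutatorElement

namespace CfsgLib.ExS

open Subgroup Cfsg

variable {G : Type*} [Group G] [Finite G]

/-- A factor of a central decomposition of an extraspecial group, when non-abelian, is extraspecial. -/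
theorem sub_extraspecial (Q T T' : Subgroup G) (hES : IsExtraspecial 2 Q) (hT : T ≤ Q) (hT' : T' ≤ Q)
    (hsup : T ⊔ T' = Q) (hcomm : ∀ x ∈ T, ∀ y ∈ T', x * y = y * x) (hna : ∃ a b : T, a * b ≠ b * a) :
    IsExtraspecial 2 T := by
  classical
  haveI : Fact (Nat.Prime 2) := ⟨Nat.prime_two⟩
  have hIsES := CfsgLib.OOL.ES.isES_of_extraspecial hES
  have hP : IsPGroup 2 T := (hES.1.1).to_le hT
  -- elements of T central in Q are central in T
  have hcT : ∀ x : T, (⟨x, hT x.2⟩ : Q) ∈ center Q → x ∈ center T := by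
    intro x hx
    rw [Subgroup.mem_center_iff] at hx ⊢
    intro g
    apply Subtype.ext
    show (g : G) * x = x * g
    exact congrArg Subtype.val (hx ⟨g, hT g.2⟩)
  -- elements central in T are central in Q
  have hcQ : ∀ x : T, x ∈ center T → (⟨x, hT x.2⟩ : Q) ∈ center Q := by
    intro x hx
    rw [Subgroup.mem_center_iff] at hx ⊢
    intro g
    apply Subtype.ext
    show (g : G) * x = x * g
    have hle : Q ≤ Subgroup.centralizer ({(x : G)} : Set G) := by
      rw [← hsup]
      apply sup_le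
      · intro t ht
        rw [Subgroup.mem_centralizer_singleton_iff]
        exact congrArg Subtype.val (hx ⟨t, ht⟩)
      · intro t ht
        rw [Subgroup.mem_centralizer_singleton_iff]
        exact (hcomm x x.2 t ht).symm
    exact Subgroup.mem_centralizer_singleton_iff.mp (hle g.2)
  have hcard : Nat.card (center T) = 2 := by
    apply le_antisymm
    · rw [← hES.2]
      apply Nat.card_le_card_of_injective
        (fun x : center T => (⟨⟨x.1, hT x.1.2⟩, hcQ x.1 x.2⟩ : center Q))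
      intro x y h
      have h1 : ((x : T) : G) = ((y : T) : G) := congrArg (fun u : center Q => ((u : Q) : G)) h
      exact Subtype.ext (Subtype.ext h1)
    · obtain ⟨a, b, hab⟩ := hna
      have hc : (⟨(a : T) * b * a⁻¹ * b⁻¹, hcT _ (hIsES.comm_mem ⟨a, hT a.2⟩ ⟨b, hT b.2⟩)⟩ : center T) ≠ 1 := by
        intro h
        have h1 : (a : T) * b * a⁻¹ * b⁻¹ = 1 := congrArg Subtype.val h
        apply hab
        have h2 := mul_inv_eq_one.mp h1
        exact mul_inv_eq_iff_eq_mul.mp h2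
      haveI : Nontrivial (center T) := ⟨⟨_, _, hc⟩⟩
      exact Nat.succ_le_of_lt Finite.one_lt_card
  apply extraspecial_of_props hP hcard
  · intro a b
    exact hcT _ (hIsES.comm_mem ⟨a, hT a.2⟩ ⟨b, hT b.2⟩)
  · intro a
    apply hcT
    have h1 := CfsgLib.OOL.ES.pow_p_mem hIsES (⟨a, hT a.2⟩ : Q)
    rw [pow_two] at h1
    exact h1
  · exact hna

theorem main_5434 (Q : Subgroup G) (hQ : IsLargeExtraspecial Q) (A : Subgroup G)
    (hA : A ≤ Subgroup.normalizer (Q : Set G)) (hAodd : Odd (Nat.card ↥A)) (hA1 : A ≠ ⊥) :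
    (Q ⊓ Subgroup.centralizer (A : Set G)) ⊔ ⁅Q, A⁆ = Q ∧
    (∀ x ∈ Q ⊓ Subgroup.centralizer (A : Set G), ∀ y ∈ ⁅Q, A⁆, x * y = y * x) ∧
    IsExtraspecial 2 ↥⁅Q, A⁆ ∧
    (Q ⊓ Subgroup.centralizer (A : Set G) = ((Subgroup.center ↥Q).map Q.subtype) ∨
      IsExtraspecial 2 ↥(Q ⊓ Subgroup.centralizer (A : Set G))) := by
  classical
  haveI : Fact (Nat.Prime 2) := ⟨Nat.prime_two⟩
  obtain ⟨hES, hCQ, -, -⟩ := hQ
  have hP : IsPGroup 2 Q := hES.1.1
  have hIsES := CfsgLib.OOL.ES.isES_of_extraspecial hES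
  let Zm : Subgroup G := (center Q).map Q.subtype
  have hZmem : ∀ {x : G} (hx : x ∈ Q), (∀ y ∈ Q, y * x = x * y) → x ∈ Zm := by
    intro x hx h
    refine ⟨⟨x, hx⟩, ?_, rfl⟩
    rw [SetLike.mem_coe, Subgroup.mem_center_iff]
    intro g
    apply Subtype.ext
    exact h g g.2
  have hZQ : ∀ {x : G}, x ∈ Zm → x ∈ Q := by
    rintro x ⟨u, _, rfl⟩
    exact u.2
  have hZc : ∀ {x : G}, x ∈ Zm → ∀ y ∈ Q, y * x = x * y := by
    rintro x ⟨u, hu, rfl⟩ y hy
    have h1 := (Subgroup.mem_center_iff.mp hu) ⟨y, hy⟩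
    exact congrArg Subtype.val h1
  have hZ2 : ∀ {x y : G}, x ∈ Zm → y ∈ Zm → x ≠ 1 → y ≠ 1 → x = y := by
    rintro x y ⟨u, hu, rfl⟩ ⟨v, hv, rfl⟩ hx hy
    obtain ⟨w, hw1, hw⟩ := (Nat.card_eq_two_iff' (1 : center Q)).mp hES.2
    have e1 := hw ⟨u, hu⟩ (fun h => hx (by
      have : u = 1 := congrArg Subtype.val h
      rw [this]; rfl))
    have e2 := hw ⟨v, hv⟩ (fun h => hy (by
      have : v = 1 := congrArg Subtype.val h
      rw [this]; rfl))
    have e3 := e1.trans e2.symm
    have e4 : u = v := congrArg Subtype.val e3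
    rw [e4]
  have hfix : ∀ a ∈ A, ∀ z ∈ Zm, a * z * a⁻¹ = z := by
    intro a ha z hz
    by_cases hz1 : z = 1
    · rw [hz1]
      group
    · have hn := Subgroup.mem_normalizer_iff.mp (hA ha)
      have hw : a * z * a⁻¹ ∈ Zm := by
        apply hZmem ((hn z).mp (hZQ hz))
        intro y hy
        have hy' : a⁻¹ * y * a ∈ Q := by
          apply (hn _).mpr
          have : a * (a⁻¹ * y * a) * a⁻¹ = y := by group
          rwa [this]
        have h1 := hZc hz _ hy'
        calc y * (a * z * a⁻¹) = a * ((a⁻¹ * y * a) * z) * a⁻¹ := by group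
          _ = a * (z * (a⁻¹ * y * a)) * a⁻¹ := by rw [h1]
          _ = a * z * a⁻¹ * y := by group
      apply hZ2 hw hz _ hz1
      intro h
      apply hz1
      have : z = a⁻¹ * (a * z * a⁻¹) * a := by group
      rw [this, h]
      group
  have hcop : (Nat.card A).Coprime (Nat.card Q) := by
    obtain ⟨n, hn⟩ := IsPGroup.iff_card.mp hP
    rw [hn]
    apply Nat.Coprime.pow_right
    exact (Nat.coprime_two_right).mpr hAodd
  have hsolv : Group.IsSolvable A ∨ Group.IsSolvable Q := by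
    right
    haveI := hP.isNilpotent
    infer_instance
  have hsup0 := CfsgLib.Solv.coprime_commutator_sup_centralizer A Q hA hcop hsolv
  have hsup1 : (Q ⊓ Subgroup.centralizer (A : Set G)) ⊔ ⁅Q, A⁆ = Q := by
    rw [sup_comm]
    exact hsup0
  have hRQ : ⁅Q, A⁆ ≤ Q := CfsgLib.Solv.commutator_le_of_normalizes hA
  -- elementwise commuting
  have hcm : ∀ x ∈ Q ⊓ Subgroup.centralizer (A : Set G), ∀ y ∈ ⁅Q, A⁆, x * y = y * x := by
    intro x hx y hy
    have hle : ⁅Q, A⁆ ≤ Subgroup.centralizer ({x} : Set G) := by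
      rw [Subgroup.commutator_le]
      intro q hq a ha
      rw [Subgroup.mem_centralizer_singleton_iff]
      have hxQ : x ∈ Q := hx.1
      have hxa : x * a = a * x := ((Subgroup.mem_centralizer_iff.mp hx.2) a ha).symm
      let c := x * q * x⁻¹ * q⁻¹
      have hcZ : c ∈ Zm := ⟨_, hIsES.comm_mem ⟨x, hxQ⟩ ⟨q, hq⟩, rfl⟩
      have hn := Subgroup.mem_normalizer_iff.mp (hA ha)
      have hq1 : a * q⁻¹ * a⁻¹ ∈ Q := (hn _).mp (inv_mem hq)
      have e1 : x * q * x⁻¹ = c * q := by
        show x * q * x⁻¹ = x * q * x⁻¹ * q⁻¹ * q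
        group
      have e2 : x * q⁻¹ * x⁻¹ = q⁻¹ * c⁻¹ := by
        have : x * q⁻¹ * x⁻¹ = (x * q * x⁻¹)⁻¹ := by group
        rw [this, e1, mul_inv_rev]
      have e3 : a * c⁻¹ * a⁻¹ = c⁻¹ := hfix a ha _ (inv_mem hcZ)
      have hxa2 : a⁻¹ * x⁻¹ = x⁻¹ * a⁻¹ := by
        rw [← mul_inv_rev, ← mul_inv_rev, hxa]
      have e4 : x * (q * a * q⁻¹ * a⁻¹) * x⁻¹ = q * a * q⁻¹ * a⁻¹ := by
        calc x * (q * a * q⁻¹ * a⁻¹) * x⁻¹ = (x * q * x⁻¹) * ((x * a) * q⁻¹ * (a⁻¹ * x⁻¹)) := by group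
          _ = (c * q) * ((a * x) * q⁻¹ * (x⁻¹ * a⁻¹)) := by rw [e1, hxa, hxa2]
          _ = (c * q) * (a * (x * q⁻¹ * x⁻¹) * a⁻¹) := by group
          _ = (c * q) * (a * (q⁻¹ * c⁻¹) * a⁻¹) := by rw [e2]
          _ = c * (q * (a * q⁻¹ * a⁻¹)) * (a * c⁻¹ * a⁻¹) := by group
          _ = c * (q * (a * q⁻¹ * a⁻¹)) * c⁻¹ := by rw [e3]
          _ = (q * (a * q⁻¹ * a⁻¹)) * c * c⁻¹ := by rw [hZc hcZ _ (mul_mem hq hq1)]
          _ = q * a * q⁻¹ * a⁻¹ := by group
      show ⁅q, a⁆ * x = x * ⁅q, a⁆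
      rw [commutatorElement_def]
      calc q * a * q⁻¹ * a⁻¹ * x = (x * (q * a * q⁻¹ * a⁻¹) * x⁻¹) * x := by rw [e4]
        _ = x * (q * a * q⁻¹ * a⁻¹) := by group
    exact (Subgroup.mem_centralizer_singleton_iff.mp (hle hy)).symm
  let C : Subgroup G := Q ⊓ Subgroup.centralizer (A : Set G)
  have hCQ' : C ≤ Q := inf_le_left
  -- elements commuting with both factors are central
  have hcent : ∀ {u : G}, u ∈ Q → (∀ x ∈ C, x * u = u * x) → (∀ y ∈ (⁅Q, A⁆ : Subgroup G), y * u = u * y) → u ∈ Zm := by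
    intro u hu h1 h2
    apply hZmem hu
    have hle : Q ≤ Subgroup.centralizer ({u} : Set G) := by
      rw [← hsup1]
      apply sup_le
      · intro t ht
        exact Subgroup.mem_centralizer_singleton_iff.mpr (h1 t ht)
      · intro t ht
        exact Subgroup.mem_centralizer_singleton_iff.mpr (h2 t ht)
    intro y hy
    exact Subgroup.mem_centralizer_singleton_iff.mp (hle hy)
  -- the commutator subgroup is non-abelian
  have hRna : ∃ a b : ↥⁅Q, A⁆, a * b ≠ b * a := by
    by_contra hab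
    push_neg at hab
    have hRZ : ⁅Q, A⁆ ≤ Zm := by
      intro r hr
      apply hcent (hRQ hr)
      · intro x hx
        exact hcm x hx r hr
      · intro y hy
        exact congrArg Subtype.val (hab ⟨y, hy⟩ ⟨r, hr⟩)
    have hRR : ⁅⁅Q, A⁆, A⁆ = (⊥ : Subgroup G) := by
      rw [eq_bot_iff, Subgroup.commutator_le]
      intro r hr a ha
      have h1 := hfix a ha r (hRZ hr)
      rw [Subgroup.mem_bot, commutatorElement_def]
      have h2 : r * a * r⁻¹ * a⁻¹ = (a * r * a⁻¹ * r⁻¹)⁻¹ := by group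
      rw [h2, h1]
      simp
    have hQA : ⁅Q, A⁆ = (⊥ : Subgroup G) := by
      rw [← hRR]
      exact (CfsgLib.Solv.coprime_commutator_commutator A Q hA hcop hsolv).symm
    have hAle : A ≤ Zm := by
      have h1 : A ≤ Subgroup.centralizer (Q : Set G) := by
        intro a ha
        rw [Subgroup.mem_centralizer_iff]
        intro q hq
        have h2 : ⁅q, a⁆ ∈ (⁅Q, A⁆ : Subgroup G) := Subgroup.commutator_mem_commutator hq ha
        rw [hQA, Subgroup.mem_bot, commutatorElement_def] at h2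
        have h3 := mul_inv_eq_one.mp h2
        exact mul_inv_eq_iff_eq_mul.mp h3
      rw [hCQ] at h1
      exact h1
    apply hA1
    rw [eq_bot_iff]
    intro a ha
    rw [Subgroup.mem_bot]
    have hsq : a ^ 2 = 1 := by
      by_cases ha1 : a = 1
      · rw [ha1]
        simp
      · by_contra hne
        have hne' : a * a ≠ 1 := by
          rw [← pow_two]
          exact hne
        have hZaa : a * a ∈ Zm := mul_mem (hAle ha) (hAle ha)
        have h1 := hZ2 hZaa (hAle ha) hne' ha1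
        apply ha1
        exact mul_left_cancel (h1.trans (mul_one a).symm)
    have hd1 : orderOf (⟨a, ha⟩ : A) ∣ Nat.card A := orderOf_dvd_natCard _
    have hd2 : orderOf (⟨a, ha⟩ : A) ∣ 2 := by
      apply orderOf_dvd_of_pow_eq_one
      exact Subtype.ext hsq
    have hd3 : orderOf (⟨a, ha⟩ : A) = 1 := by
      have := Nat.Coprime.eq_one_of_dvd ((Nat.coprime_two_right).mpr (hAodd.of_dvd_nat hd1)) hd2
      exact this
    have := orderOf_eq_one_iff.mp hd3
    exact congrArg Subtype.val this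
  refine ⟨hsup1, hcm, ?_, ?_⟩
  · exact sub_extraspecial Q ⁅Q, A⁆ C hES hRQ hCQ' (by rw [sup_comm]; exact hsup1)
      (fun x hx y hy => (hcm y hy x hx).symm) hRna
  · by_cases hCna : ∃ a b : ↥C, a * b ≠ b * a
    · right
      exact sub_extraspecial Q C ⁅Q, A⁆ hES hCQ' hRQ hsup1 hcm hCna
    · left
      push_neg at hCna
      apply le_antisymm
      · intro c hc
        apply hcent hc.1
        · intro x hx
          exact congrArg Subtype.val (hCna ⟨x, hx⟩ ⟨c, hc⟩)
        · intro y hy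
          exact (hcm c hc y hy).symm
      · intro z hz
        refine Subgroup.mem_inf.mpr ⟨hZQ hz, ?_⟩
        rw [Subgroup.mem_centralizer_iff]
        intro a ha
        have h1 := hfix a ha z hz
        calc a * z = (a * z * a⁻¹) * a := by group
          _ = z * a := by rw [h1]

end CfsgLib.ExS
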