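/-
Explicit extraspecial 2-groups of both types and their 2-ranks.
-/
import Mathlib
import Cfsg.Prelude.Def_Transfer
import Cfsg.Agent.Lib.ExS.Crit

set_option autoImplicit false
set_option linter.unusedVariables false
set_option linter.unusedSectionVars false

namespace CfsgLib.ExS.Rank

open Cfsg Finset

abbrev Pt := ZMod 2 × ZMod 2
abbrev Vec (n : ℕ) := Fin n → Pt

variable {n e : ℕ}

/-- The local bilinear form. -/
def bF (n e : ℕ) (i : Fin n) (p q : Pt) : ZMod 2 :=
  if i.val < e then p.1 * q.1 + p.1 * q.2 + p.2 * q.2 else p.1 * q.2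

theorem bF_add_left (i : Fin n) (p p' q : Pt) : bF n e i (p + p') q = bF n e i p q + bF n e i p' q := by
  unfold bF
  split_ifs <;> simp only [Prod.fst_add, Prod.snd_add] <;> ring

theorem bF_add_right (i : Fin n) (p q q' : Pt) : bF n e i p (q + q') = bF n e i p q + bF n e i p q' := by
  unfold bF
  split_ifs <;> simp only [Prod.fst_add, Prod.snd_add] <;> ring

/-- The global bilinear form. -/
def bil (n e : ℕ) (v w : Vec n) : ZMod 2 := ∑ i, bF n e i (v i) (w i)

theorem bil_add_left (u v w : Vec n) : bil n e (u + v) w = bil n e u w + bil n e v w := by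
  unfold bil
  rw [← Finset.sum_add_distrib]
  exact Finset.sum_congr rfl (fun i _ => bF_add_left i _ _ _)

theorem bil_add_right (u v w : Vec n) : bil n e u (v + w) = bil n e u v + bil n e u w := by
  unfold bil
  rw [← Finset.sum_add_distrib]
  exact Finset.sum_congr rfl (fun i _ => bF_add_right i _ _ _)

theorem bil_zero_left (w : Vec n) : bil n e 0 w = 0 := by
  unfold bil bF
  apply Finset.sum_eq_zero
  intro i _
  split_ifs <;> simp

theorem bil_zero_right (w : Vec n) : bil n e w 0 = 0 := by
  unfold bil bF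
  apply Finset.sum_eq_zero
  intro i _
  split_ifs <;> simp

/-- The symplectic form. -/
def bS (v w : Vec n) : ZMod 2 := ∑ i, ((v i).1 * (w i).2 + (v i).2 * (w i).1)

theorem z2_poly1 : ∀ a b c d : ZMod 2, (a * c + a * d + b * d) + (c * a + c * b + d * b) = a * d + b * c := by decide

theorem z2_poly2 : ∀ a b c d : ZMod 2, (a * d) + (c * b) = a * d + b * c := by decide

theorem bil_add_swap (v w : Vec n) : bil n e v w + bil n e w v = bS v w := by
  unfold bil bS
  rw [← Finset.sum_add_distrib]
  apply Finset.sum_congr rfl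
  intro i _
  unfold bF
  split_ifs
  · exact z2_poly1 _ _ _ _
  · exact z2_poly2 _ _ _ _

theorem bS_comm (v w : Vec n) : bS v w = bS w v := by
  unfold bS
  apply Finset.sum_congr rfl
  intro i _
  ring

theorem bS_add_right (u v w : Vec n) : bS u (v + w) = bS u v + bS u w := by
  unfold bS
  rw [← Finset.sum_add_distrib]
  apply Finset.sum_congr rfl
  intro i _
  simp only [Pi.add_apply, Prod.fst_add, Prod.snd_add]
  ring

theorem bS_zero_right (u : Vec n) : bS u 0 = 0 := by
  unfold bS
  apply Finset.sum_eq_zero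
  intro i _
  simp

theorem z2_ne (x : ZMod 2) (h : x ≠ 0) : x = 1 := by
  revert x
  decide

theorem bS_single (v : Vec n) (i : Fin n) (p : Pt) : bS v (Pi.single i p) = (v i).1 * p.2 + (v i).2 * p.1 := by
  unfold bS
  rw [Finset.sum_eq_single i]
  · simp
  · intro j _ hj
    simp [Pi.single_eq_of_ne hj]
  · intro h
    exact absurd (Finset.mem_univ i) h

theorem nondeg {v : Vec n} (hv : v ≠ 0) : ∃ w : Vec n, bS v w = 1 := by
  obtain ⟨i, hi⟩ : ∃ i, v i ≠ 0 := by
    by_contra h
    push_neg at h
    exact hv (funext h)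
  by_cases h1 : (v i).1 = 0
  · have h2 : (v i).2 ≠ 0 := by
      intro h2
      exact hi (Prod.ext h1 h2)
    refine ⟨Pi.single i (1, 0), ?_⟩
    rw [bS_single, h1, z2_ne _ h2]
    decide
  · refine ⟨Pi.single i (0, 1), ?_⟩
    rw [bS_single, z2_ne _ h1]
    simp

theorem vec_add_self (v : Vec n) : v + v = 0 := by
  funext i
  apply Prod.ext
  · exact CharTwo.add_self_eq_zero _
  · exact CharTwo.add_self_eq_zero _

theorem z2_add_self (x : ZMod 2) : x + x = 0 := CharTwo.add_self_eq_zero x

/-- The group. -/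
@[ext] structure HG (n e : ℕ) where
  v : Vec n
  a : ZMod 2

instance : Mul (HG n e) := ⟨fun x y => ⟨x.v + y.v, x.a + y.a + bil n e x.v y.v⟩⟩
instance : One (HG n e) := ⟨⟨0, 0⟩⟩
instance : Inv (HG n e) := ⟨fun x => ⟨x.v, x.a + bil n e x.v x.v⟩⟩

@[simp] theorem mul_v (x y : HG n e) : (x * y).v = x.v + y.v := rfl
@[simp] theorem mul_a (x y : HG n e) : (x * y).a = x.a + y.a + bil n e x.v y.v := rfl
@[simp] theorem one_v : (1 : HG n e).v = 0 := rfl
@[simp] theorem one_a : (1 : HG n e).a = 0 := rfl
@[simp] theorem inv_v (x : HG n e) : (x⁻¹).v = x.v := rfl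
@[simp] theorem inv_a (x : HG n e) : (x⁻¹).a = x.a + bil n e x.v x.v := rfl

instance : Group (HG n e) := Group.ofLeftAxioms
  (by
    intro x y z
    apply HG.ext
    · simp only [mul_v, add_assoc]
    · simp only [mul_a, mul_v, bil_add_left, bil_add_right]
      ring)
  (by
    intro x
    apply HG.ext
    · simp
    · simp [bil_zero_left])
  (by
    intro x
    apply HG.ext
    · simp [vec_add_self]
    · simp only [mul_a, inv_a, inv_v, one_a]
      have h1 := z2_add_self (x.a + bil n e x.v x.v)
      have h2 : x.a + bil n e x.v x.v + x.a + bil n e x.v x.v = (x.a + bil n e x.v x.v) + (x.a + bil n e x.v x.v) := by ring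
      rw [h2, h1])

def equivProd : HG n e ≃ Vec n × ZMod 2 where
  toFun x := (x.v, x.a)
  invFun p := ⟨p.1, p.2⟩
  left_inv _ := rfl
  right_inv _ := rfl

instance : Finite (HG n e) := Finite.of_equiv _ equivProd.symm

theorem card_vec : Nat.card (Vec n) = 2 ^ (2 * n) := by
  rw [Nat.card_eq_fintype_card, Fintype.card_fun, Fintype.card_prod, ZMod.card, Fintype.card_fin, pow_mul]
  norm_num

theorem card_HG : Nat.card (HG n e) = 2 ^ (2 * n + 1) := by
  rw [Nat.card_congr equivProd, Nat.card_prod, card_vec, pow_succ]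
  simp

theorem commute_iff (x y : HG n e) : x * y = y * x ↔ bS x.v y.v = 0 := by
  rw [← bil_add_swap (e := e)]
  constructor
  · intro h
    have h1 := congrArg HG.a h
    simp only [mul_a] at h1
    have h2 : bil n e x.v y.v = bil n e y.v x.v := by
      have h3 : x.a + y.a + bil n e x.v y.v = (x.a + y.a) + bil n e y.v x.v := by
        rw [h1]
        ring
      exact add_left_cancel h3
    rw [h2]
    exact z2_add_self _
  · intro h
    have h2 : bil n e x.v y.v = bil n e y.v x.v := by
      have h3 := z2_add_self (bil n e y.v x.v)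
      exact add_right_cancel (h.trans h3.symm)
    apply HG.ext
    · exact add_comm _ _
    · simp only [mul_a]
      rw [h2]
      ring

theorem mem_center_of_v {x : HG n e} (h : x.v = 0) : x ∈ Subgroup.center (HG n e) := by
  rw [Subgroup.mem_center_iff]
  intro g
  rw [commute_iff, h, bS_zero_right]

theorem v_of_mem_center {x : HG n e} (h : x ∈ Subgroup.center (HG n e)) : x.v = 0 := by
  by_contra hv
  obtain ⟨w, hw⟩ := nondeg hv
  have h1 := (Subgroup.mem_center_iff.mp h) ⟨w, 0⟩
  rw [eq_comm, commute_iff] at h1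
  rw [h1] at hw
  exact absurd hw (by decide)

theorem card_center : Nat.card (Subgroup.center (HG n e)) = 2 := by
  let f : ZMod 2 → Subgroup.center (HG n e) := fun a => ⟨⟨0, a⟩, mem_center_of_v rfl⟩
  have hf : Function.Bijective f := by
    constructor
    · intro a b h
      exact congrArg (fun u : Subgroup.center (HG n e) => (u : HG n e).a) h
    · intro x
      refine ⟨(x : HG n e).a, ?_⟩
      apply Subtype.ext
      apply HG.ext
      · exact (v_of_mem_center x.2).symm
      · rfl
  rw [← Nat.card_congr (Equiv.ofBijective f hf)]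
  simp

theorem extraspecial (hn : 1 ≤ n) : IsExtraspecial 2 (HG n e) := by
  apply CfsgLib.ExS.extraspecial_of_props
  · apply IsPGroup.of_card (n := 2 * n + 1)
    exact card_HG
  · exact card_center
  · intro x y
    apply mem_center_of_v
    simp only [mul_v, inv_v]
    have : x.v + y.v + x.v + y.v = (x.v + x.v) + (y.v + y.v) := by abel
    rw [this, vec_add_self, vec_add_self, add_zero]
  · intro x
    apply mem_center_of_v
    simp only [mul_v]
    exact vec_add_self _
  · let i : Fin n := ⟨0, hn⟩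
    refine ⟨⟨Pi.single i (1, 0), 0⟩, ⟨Pi.single i (0, 1), 0⟩, ?_⟩
    rw [Ne, commute_iff]
    rw [bS_single]
    simp

/-! ### Sign sums -/

/-- The sign character. -/
def chi (x : ZMod 2) : ℤ := if x = 0 then 1 else -1

theorem chi_add : ∀ x y : ZMod 2, chi (x + y) = chi x * chi y := by decide

theorem chi_zero : chi 0 = 1 := rfl
theorem chi_one : chi 1 = -1 := rfl

theorem chi_sum {ι : Type*} (s : Finset ι) (f : ι → ZMod 2) : chi (∑ i ∈ s, f i) = ∏ i ∈ s, chi (f i) := by
  classical
  induction s using Finset.induction_on with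
  | empty => simp [chi_zero]
  | insert a s ha ih => rw [Finset.sum_insert ha, Finset.prod_insert ha, chi_add, ih]

/-- The quadratic form. -/
def Qf (n e : ℕ) (v : Vec n) : ZMod 2 := bil n e v v

theorem Qf_add (u w : Vec n) : Qf n e (u + w) = Qf n e u + Qf n e w + bS u w := by
  unfold Qf
  rw [bil_add_left, bil_add_right, bil_add_right, ← bil_add_swap (e := e) u w]
  ring

theorem local_sum_lt : ∑ p : Pt, chi (p.1 * p.1 + p.1 * p.2 + p.2 * p.2) = -2 := by decide +kernel

theorem local_sum_ge : ∑ p : Pt, chi (p.1 * p.2) = 2 := by decide +kernel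

/-- The total sign sum. -/
def sumS (n e : ℕ) : ℤ := ∑ u : Vec n, chi (Qf n e u)

theorem sumS_eq : sumS n e = ∏ i : Fin n, (if i.val < e then (-2 : ℤ) else 2) := by
  classical
  have h1 : ∀ u : Vec n, chi (Qf n e u) = ∏ i : Fin n, chi (bF n e i (u i) (u i)) := by
    intro u
    unfold Qf bil
    exact chi_sum _ _
  unfold sumS
  simp_rw [h1]
  have h2 := Finset.prod_univ_sum (fun _ : Fin n => (Finset.univ : Finset Pt))
    (fun (i : Fin n) (p : Pt) => chi (bF n e i p p))
  rw [Fintype.piFinset_univ] at h2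
  rw [← h2]
  apply Finset.prod_congr rfl
  intro i _
  unfold bF
  split_ifs
  · exact local_sum_lt
  · exact local_sum_ge

theorem sumS_zero : sumS n 0 = 2 ^ n := by
  rw [sumS_eq]
  simp

theorem sumS_one (m : ℕ) : sumS (m + 1) 1 = -(2 ^ (m + 1)) := by
  rw [sumS_eq, Fin.prod_univ_succ]
  have h : ∀ j : Fin m, (if (j.succ : Fin (m + 1)).val < 1 then (-2 : ℤ) else 2) = 2 := by
    intro j
    rw [if_neg]
    simp
  simp_rw [h]
  simp
  ring

section witt

variable (W : AddSubgroup (Vec n)) (hQ : ∀ v ∈ W, Qf n e v = 0)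

open Classical in
/-- The orthogonal space. -/
noncomputable def perp : Finset (Vec n) := Finset.univ.filter (fun u => ∀ w ∈ W, bS u w = 0)

open Classical in
/-- The members as a finite set. -/
noncomputable def Wset : Finset (Vec n) := Finset.univ.filter (fun u => u ∈ W)

omit hQ in
theorem mem_Wset {u : Vec n} : u ∈ Wset W ↔ u ∈ W := by
  classical
  simp [Wset]

omit hQ in
theorem mem_perp {u : Vec n} : u ∈ perp W ↔ ∀ w ∈ W, bS u w = 0 := by
  classical
  simp [perp]

/-- The character sum over the subgroup. -/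
noncomputable def sumT (u : Vec n) : ℤ := ∑ w ∈ Wset W, chi (bS u w)

omit hQ in
theorem sumT_perp {u : Vec n} (hu : u ∈ perp W) : sumT W u = (Wset W).card := by
  unfold sumT
  rw [Finset.sum_congr rfl (fun w hw => by rw [(mem_perp W).mp hu w ((mem_Wset W).mp hw), chi_zero])]
  simp

omit hQ in
theorem sumT_nonperp {u : Vec n} (hu : u ∉ perp W) : sumT W u = 0 := by
  classical
  rw [mem_perp] at hu
  push_neg at hu
  obtain ⟨w0, hw0, hne⟩ := hu
  have h1 := z2_ne _ hne
  have h2 : sumT W u = - sumT W u := by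
    unfold sumT
    rw [← Finset.sum_neg_distrib]
    apply Finset.sum_bij' (fun w _ => w + w0) (fun w _ => w + w0)
    · intro w hw
      exact (mem_Wset W).mpr (W.add_mem ((mem_Wset W).mp hw) hw0)
    · intro w hw
      exact (mem_Wset W).mpr (W.add_mem ((mem_Wset W).mp hw) hw0)
    · intro w hw
      rw [add_assoc, vec_add_self, add_zero]
    · intro w hw
      rw [add_assoc, vec_add_self, add_zero]
    · intro w hw
      rw [bS_add_right, chi_add, h1, chi_one]
      ring
  omega

include hQ in
theorem mul_sumS : ((Wset W).card : ℤ) * sumS n e = ((Wset W).card : ℤ) * ∑ u ∈ perp W, chi (Qf n e u) := by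
  classical
  have h1 : ((Wset W).card : ℤ) * sumS n e = ∑ w ∈ Wset W, ∑ u : Vec n, chi (Qf n e (u + w)) := by
    have h2 : ∀ w ∈ Wset W, ∑ u : Vec n, chi (Qf n e (u + w)) = sumS n e := by
      intro w _
      unfold sumS
      exact Equiv.sum_comp (Equiv.addRight w) (fun u => chi (Qf n e u))
    rw [Finset.sum_congr rfl h2]
    simp
  rw [h1]
  have h3 : ∀ w ∈ Wset W, ∀ u : Vec n, chi (Qf n e (u + w)) = chi (Qf n e u) * chi (bS u w) := by
    intro w hw u
    rw [Qf_add, hQ w ((mem_Wset W).mp hw), add_zero, chi_add]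
  have h4 : ∑ w ∈ Wset W, ∑ u : Vec n, chi (Qf n e (u + w)) = ∑ u : Vec n, chi (Qf n e u) * sumT W u := by
    rw [Finset.sum_comm]
    apply Finset.sum_congr rfl
    intro u _
    unfold sumT
    rw [Finset.mul_sum]
    exact Finset.sum_congr rfl (fun w hw => h3 w hw u)
  rw [h4, Finset.mul_sum]
  rw [show perp W = Finset.univ.filter (fun u => ∀ w ∈ W, bS u w = 0) from rfl, Finset.sum_filter]
  apply Finset.sum_congr rfl
  intro u _
  by_cases hu : ∀ w ∈ W, bS u w = 0
  · rw [if_pos hu, sumT_perp W ((mem_perp W).mpr hu)]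
    ring
  · rw [if_neg hu, sumT_nonperp W (fun h => hu ((mem_perp W).mp h))]
    ring

omit hQ in
theorem card_Wset_pos : 0 < (Wset W).card :=
  Finset.card_pos.mpr ⟨0, (mem_Wset W).mpr W.zero_mem⟩

include hQ in
theorem sumS_perp : sumS n e = ∑ u ∈ perp W, chi (Qf n e u) := by
  have h1 := mul_sumS W hQ
  have h2 : ((Wset W).card : ℤ) ≠ 0 := by
    have := card_Wset_pos W
    omega
  exact mul_left_cancel₀ h2 h1

theorem sum_chi_bS (w : Vec n) : ∑ u : Vec n, chi (bS u w) = if w = 0 then (Fintype.card (Vec n) : ℤ) else 0 := by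
  classical
  by_cases hw : w = 0
  · rw [if_pos hw, hw]
    simp_rw [bS_zero_right, chi_zero]
    simp
  · rw [if_neg hw]
    obtain ⟨u0, hu0⟩ := nondeg hw
    have hu0' : bS u0 w = 1 := by rw [bS_comm]; exact hu0
    have h2 : ∑ u : Vec n, chi (bS u w) = - ∑ u : Vec n, chi (bS u w) := by
      rw [← Finset.sum_neg_distrib]
      apply Fintype.sum_equiv (Equiv.addRight u0)
      intro u
      show chi (bS u w) = - chi (bS (u + u0) w)
      rw [bS_comm (u + u0), bS_add_right, bS_comm w u, bS_comm w u0, hu0', chi_add, chi_one]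
      ring
    omega

omit hQ in
theorem card_mul_perp : (Wset W).card * (perp W).card = 2 ^ (2 * n) := by
  classical
  have h1 : ∑ u : Vec n, sumT W u = ((Wset W).card : ℤ) * (perp W).card := by
    have h2 : ∀ u : Vec n, sumT W u = if u ∈ perp W then ((Wset W).card : ℤ) else 0 := by
      intro u
      by_cases hu : u ∈ perp W
      · rw [if_pos hu, sumT_perp W hu]
      · rw [if_neg hu, sumT_nonperp W hu]
    simp_rw [h2]
    rw [Finset.sum_ite_mem]
    simp
    ring
  have h3 : ∑ u : Vec n, sumT W u = (Fintype.card (Vec n) : ℤ) := by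
    unfold sumT
    rw [Finset.sum_comm]
    simp_rw [sum_chi_bS]
    rw [Finset.sum_ite_eq']
    rw [if_pos ((mem_Wset W).mpr W.zero_mem)]
  have hcard : Fintype.card (Vec n) = 2 ^ (2 * n) := by
    rw [← Nat.card_eq_fintype_card, card_vec]
  rw [hcard] at h3
  have h4 : (((Wset W).card * (perp W).card : ℕ) : ℤ) = ((2 ^ (2 * n) : ℕ) : ℤ) := by
    push_cast
    rw [← h1, h3]
    push_cast
    rfl
  exact_mod_cast h4

include hQ in
theorem abs_sumS_le : |sumS n e| ≤ ((perp W).card : ℤ) := by
  rw [sumS_perp W hQ]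
  calc |∑ u ∈ perp W, chi (Qf n e u)| ≤ ∑ u ∈ perp W, |chi (Qf n e u)| := Finset.abs_sum_le_sum_abs _ _
    _ = ∑ u ∈ perp W, 1 := by
      apply Finset.sum_congr rfl
      intro u _
      unfold chi
      split_ifs <;> simp
    _ = ((perp W).card : ℤ) := by simp

include hQ in
theorem card_Wset_le (hS : |sumS n e| = 2 ^ n) : (Wset W).card ≤ 2 ^ n := by
  have h1 := abs_sumS_le W hQ
  rw [hS] at h1
  have h2 : 2 ^ n ≤ (perp W).card := by exact_mod_cast h1
  have h3 := card_mul_perp W
  have h4 : (Wset W).card * 2 ^ n ≤ 2 ^ n * 2 ^ n := by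
    calc (Wset W).card * 2 ^ n ≤ (Wset W).card * (perp W).card := Nat.mul_le_mul_left _ h2
      _ = 2 ^ (2 * n) := h3
      _ = 2 ^ n * 2 ^ n := by rw [two_mul, pow_add]
  exact Nat.le_of_mul_le_mul_right h4 (by positivity)

end witt

theorem witt_zero (W : AddSubgroup (Vec n)) (hQ : ∀ v ∈ W, Qf n 0 v = 0) : (Wset W).card ≤ 2 ^ n :=
  card_Wset_le W hQ (by
    rw [sumS_zero]
    simp)

theorem witt_one {m : ℕ} (W : AddSubgroup (Vec (m + 1))) (hQ : ∀ v ∈ W, Qf (m + 1) 1 v = 0) :
    (Wset W).card ≤ 2 ^ m := by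
  classical
  have hS : sumS (m + 1) 1 = -(2 ^ (m + 1)) := sumS_one m
  have hle := card_Wset_le W hQ (by rw [hS]; simp)
  have hmul := card_mul_perp W
  obtain ⟨t, ht, htc⟩ := (Nat.dvd_prime_pow Nat.prime_two).mp (Dvd.intro _ hmul)
  rw [htc] at hle ⊢
  have htle : t ≤ m + 1 := (Nat.pow_le_pow_iff_right (by norm_num)).mp hle
  by_cases htm : t ≤ m
  · exact Nat.pow_le_pow_right (by norm_num) htm
  · exfalso
    have ht' : t = m + 1 := by omega
    have hc1 : (Wset W).card = 2 ^ (m + 1) := by rw [htc, ht']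
    have hc2 : (perp W).card = 2 ^ (m + 1) := by
      have h3 : 2 ^ (m + 1) * (perp W).card = 2 ^ (m + 1) * 2 ^ (m + 1) := by
        calc 2 ^ (m + 1) * (perp W).card = (Wset W).card * (perp W).card := by rw [hc1]
          _ = 2 ^ (2 * (m + 1)) := hmul
          _ = 2 ^ (m + 1) * 2 ^ (m + 1) := by rw [two_mul, pow_add]
      exact Nat.eq_of_mul_eq_mul_left (by positivity) h3
    have hsub : Wset W ⊆ perp W := by
      intro u hu
      rw [mem_perp]
      intro w hw
      have hu' := (mem_Wset W).mp hu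
      have h1 := hQ _ (W.add_mem hu' hw)
      rw [Qf_add, hQ u hu', hQ w hw, zero_add, zero_add] at h1
      exact h1
    have heq : Wset W = perp W := Finset.eq_of_subset_of_card_le hsub (by rw [hc1, hc2])
    have h5 := sumS_perp W hQ
    rw [← heq, Finset.sum_congr rfl (fun u hu => by rw [hQ u ((mem_Wset W).mp hu), chi_zero])] at h5
    simp at h5
    rw [hS] at h5
    have h6 : (0 : ℤ) < ((Wset W).card : ℤ) := by
      have := card_Wset_pos W
      omega
    have h7 : (0 : ℤ) < 2 ^ (m + 1) := by positivity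
    omega

/-! ### The subgroups -/

/-- The projection of an elementary abelian subgroup. -/
def projW (A : Subgroup (HG n e)) : AddSubgroup (Vec n) where
  carrier := {v | ∃ a, (⟨v, a⟩ : HG n e) ∈ A}
  add_mem' := by
    rintro v w ⟨a, ha⟩ ⟨b, hb⟩
    exact ⟨_, A.mul_mem ha hb⟩
  zero_mem' := ⟨0, A.one_mem⟩
  neg_mem' := by
    rintro v ⟨a, ha⟩
    have h : -v = v := by
      have := vec_add_self v
      exact neg_eq_of_add_eq_zero_left this
    rw [Set.mem_setOf_eq, h]
    exact ⟨a, ha⟩

theorem qf_of_mem {A : Subgroup (HG n e)} (hA : ∀ a ∈ A, a ^ 2 = 1) : ∀ v ∈ projW A, Qf n e v = 0 := by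
  rintro v ⟨a, ha⟩
  have h1 := hA _ ha
  rw [pow_two] at h1
  have h2 := congrArg HG.a h1
  simp only [mul_a, one_a] at h2
  have h3 := z2_add_self a
  rw [h3, zero_add] at h2
  exact h2

theorem card_le_of_proj (A : Subgroup (HG n e)) : Nat.card A ≤ (Wset (projW A)).card * 2 := by
  classical
  have h1 : Nat.card A ≤ Nat.card (Wset (projW A) × ZMod 2) := by
    apply Nat.card_le_card_of_injective
      (fun x : A => ((⟨(x : HG n e).v, (mem_Wset _).mpr ⟨(x : HG n e).a, x.2⟩⟩ : Wset (projW A)), (x : HG n e).a))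
    intro x y h
    have h1 := congrArg (fun p : Wset (projW A) × ZMod 2 => ((p.1 : Vec n))) h
    have h2 := congrArg (fun p : Wset (projW A) × ZMod 2 => p.2) h
    exact Subtype.ext (HG.ext h1 h2)
  rw [Nat.card_prod] at h1
  simpa using h1

/-- The explicit elementary abelian subgroup. -/
def stdA (n e : ℕ) : Subgroup (HG n e) where
  carrier := {x | ∀ i : Fin n, (i.val < e → x.v i = 0) ∧ (x.v i).2 = 0}
  mul_mem' := by
    intro x y hx hy i
    refine ⟨fun h => ?_, ?_⟩
    · show x.v i + y.v i = 0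
      rw [(hx i).1 h, (hy i).1 h, add_zero]
    · show (x.v i).2 + (y.v i).2 = 0
      rw [(hx i).2, (hy i).2, add_zero]
  one_mem' := by
    intro i
    exact ⟨fun _ => rfl, rfl⟩
  inv_mem' := by
    intro x hx i
    exact hx i

theorem stdA_elem : IsElementaryAbelian 2 (stdA n e) := by
  constructor
  · refine ⟨⟨fun x y => Subtype.ext ?_⟩⟩
    show (x : HG n e) * y = y * x
    rw [commute_iff]
    unfold bS
    apply Finset.sum_eq_zero
    intro i _
    rw [(x.2 i).2, (y.2 i).2]
    ring
  · intro x hx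
    rw [pow_two]
    apply HG.ext
    · exact vec_add_self _
    · simp only [mul_a, one_a]
      rw [z2_add_self, zero_add]
      unfold bil
      apply Finset.sum_eq_zero
      intro i _
      unfold bF
      split_ifs with h
      · rw [(hx i).1 h]
        simp
      · rw [(hx i).2]
        ring

theorem card_index (he : e ≤ n) : Nat.card {i : Fin n // e ≤ i.val} = n - e := by
  let f : Fin (n - e) → {i : Fin n // e ≤ i.val} := fun j => ⟨⟨j.val + e, by omega⟩, by simp⟩
  have hf : Function.Bijective f := by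
    constructor
    · intro a b h
      have h1 := congrArg (fun u : {i : Fin n // e ≤ i.val} => u.1.val) h
      simp only [f] at h1
      exact Fin.ext (by omega)
    · rintro ⟨i, hi⟩
      refine ⟨⟨i.val - e, by omega⟩, ?_⟩
      apply Subtype.ext
      apply Fin.ext
      simp only [f]
      omega
  rw [← Nat.card_congr (Equiv.ofBijective f hf)]
  simp

theorem card_stdA (he : e ≤ n) : Nat.card (stdA n e) = 2 ^ (n - e + 1) := by
  classical
  let φ : stdA n e → ({i : Fin n // e ≤ i.val} → ZMod 2) × ZMod 2 :=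
    fun x => (fun i => ((x : HG n e).v i.1).1, (x : HG n e).a)
  have hφ : Function.Bijective φ := by
    constructor
    · intro x y h
      apply Subtype.ext
      apply HG.ext
      · funext i
        by_cases hi : e ≤ i.val
        · apply Prod.ext
          · exact congrFun (congrArg Prod.fst h) ⟨i, hi⟩
          · rw [(x.2 i).2, (y.2 i).2]
        · have h1 : i.val < e := by omega
          rw [(x.2 i).1 h1, (y.2 i).1 h1]
      · exact congrArg Prod.snd h
    · rintro ⟨f, a⟩
      refine ⟨⟨⟨fun i => if h : e ≤ i.val then (f ⟨i, h⟩, 0) else 0, a⟩, ?_⟩, ?_⟩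
      · intro i
        refine ⟨fun h => ?_, ?_⟩
        · show (if h : e ≤ i.val then ((f ⟨i, h⟩, 0) : Pt) else 0) = 0
          rw [dif_neg (by omega)]
        · show (if h : e ≤ i.val then ((f ⟨i, h⟩, 0) : Pt) else 0).2 = 0
          split_ifs <;> rfl
      · apply Prod.ext
        · funext i
          show (if h : e ≤ i.1.val then ((f ⟨i.1, h⟩, 0) : Pt) else 0).1 = f i
          rw [dif_pos i.2]
        · rfl
  rw [Nat.card_congr (Equiv.ofBijective φ hφ), Nat.card_prod, Nat.card_fun, card_index he, pow_succ]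
  simp

theorem rank_eq (he : e ≤ n) (hbd : ∀ W : AddSubgroup (Vec n), (∀ v ∈ W, Qf n e v = 0) → (Wset W).card ≤ 2 ^ (n - e)) :
    sSup {k : ℕ | ∃ A : Subgroup (HG n e), IsElementaryAbelian 2 A ∧ Nat.card A = 2 ^ k} = n - e + 1 := by
  apply IsGreatest.csSup_eq
  constructor
  · exact ⟨stdA n e, stdA_elem, card_stdA he⟩
  · rintro k ⟨A, hA, hk⟩
    have h1 := card_le_of_proj A
    have h2 := hbd (projW A) (qf_of_mem hA.2)
    rw [hk] at h1
    have h3 : 2 ^ k ≤ 2 ^ (n - e + 1) := by
      rw [pow_succ]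
      exact h1.trans (Nat.mul_le_mul_right _ h2)
    exact (Nat.pow_le_pow_iff_right (by norm_num)).mp h3

theorem main_5396 (n : ℕ) (hn : 1 ≤ n) : ∀ r ∈ ({n, n + 1} : Set ℕ), ∃ (E : Type) (_ : Group E) (_ : Finite E),
    IsExtraspecial 2 E ∧ Nat.card E = 2 ^ (2 * n + 1) ∧
      sSup {k : ℕ | ∃ A : Subgroup E, IsElementaryAbelian 2 A ∧ Nat.card A = 2 ^ k} = r := by
  rintro r (rfl | rfl)
  · obtain ⟨m, rfl⟩ : ∃ m, r = m + 1 := ⟨r - 1, by omega⟩
    refine ⟨HG (m + 1) 1, inferInstance, inferInstance, extraspecial hn, card_HG, ?_⟩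
    have h := rank_eq (n := m + 1) (e := 1) (by omega) (fun W hW => by
      have := witt_one W hW
      simpa using this)
    rw [h]
    omega
  · refine ⟨HG n 0, inferInstance, inferInstance, extraspecial hn, card_HG, ?_⟩
    have h := rank_eq (n := n) (e := 0) (by omega) (fun W hW => by
      have := witt_zero W hW
      simpa using this)
    rw [h]
    omega

end CfsgLib.ExS.Rank
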